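import Cfsg.Agent.Schur.SylowCover
set_option autoImplicit false

/-!
Prime covers and small Sylow subgroups of odd order: lifts of commuting elements commute as soon as
an element acts on them with a determinant different from one.
-/

namespace CfsgLib.MathieuCover

open scoped commutatorElement
open CfsgLib.Schur

variable {G : Type*} [Group G] {Γ : Type*} [Group Γ] {σ : Γ →* G} {e : Γ} {p : ℕ}

/-- Powers of two elements with a central commutator. -/
theorem comm_pow {U V c : Γ} (hc : ∀ x, x * c = c * x) (h : U * V = c * (V * U)) :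
    ∀ i l : ℕ, ⁅U ^ i, V ^ l⁆ = c ^ (i * l) := by
  have hcp : ∀ (k : ℕ) (x : Γ), x * c ^ k = c ^ k * x := fun k x => (Commute.pow_right (hc x) k).eq
  have h1 : ∀ l : ℕ, U * V ^ l = c ^ l * (V ^ l * U) := by
    intro l
    induction l with
    | zero => simp
    | succ l ih =>
      calc U * V ^ (l + 1) = (U * V ^ l) * V := by rw [pow_succ, mul_assoc]
        _ = c ^ l * V ^ l * (U * V) := by rw [ih]; simp [mul_assoc]
        _ = c ^ l * (V ^ l * c) * (V * U) := by rw [h]; simp [mul_assoc]
        _ = _ := by rw [hc (V ^ l), pow_succ c, pow_succ V]; simp [mul_assoc]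
  intro i l
  have h2 : U ^ i * V ^ l = c ^ (i * l) * (V ^ l * U ^ i) := by
    induction i with
    | zero => simp
    | succ i ih =>
      calc U ^ (i + 1) * V ^ l = U ^ i * (U * V ^ l) := by rw [pow_succ, mul_assoc]
        _ = (U ^ i * c ^ l) * (V ^ l * U) := by rw [h1 l]; simp [mul_assoc]
        _ = c ^ l * (U ^ i * V ^ l) * U := by rw [hcp l (U ^ i)]; simp [mul_assoc]
        _ = _ := by rw [ih, Nat.succ_mul, add_comm (i * l) l, pow_add, pow_succ]; simp [mul_assoc]
  rw [commutatorElement_def, h2]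
  group

/-- Lifts of commuting elements have commutator `1` as soon as some element multiplies it by `i l`. -/
theorem lifts_commute (c : PrimeCover σ e p) (hp : p.Prime) {u v g : G} {i l : ℕ}
    (huv : u * v = v * u) (hu : g * u * g⁻¹ = u ^ i) (hv : g * v * g⁻¹ = v ^ l)
    (hne : ¬ (i * l) % p = 1) {U V : Γ} (hU : σ U = u) (hV : σ V = v) : U * V = V * U := by
  obtain ⟨w, hw⟩ : ∃ w, w = ⁅U, V⁆ := ⟨_, rfl⟩
  have hwk : w ∈ σ.ker := by
    rw [MonoidHom.mem_ker, hw, map_commutatorElement, hU, hV, commutatorElement_eq_one_iff_mul_comm]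
    exact huv
  have hwc : ∀ x, x * w = w * x := fun x => c.comm x hwk
  have hrel : U * V = w * (V * U) := by rw [hw, commutatorElement_def]; group
  obtain ⟨h, rfl⟩ := c.surj g
  have e1 : ⁅h * U * h⁻¹, h * V * h⁻¹⁆ = w := by
    rw [show ⁅h * U * h⁻¹, h * V * h⁻¹⁆ = h * ⁅U, V⁆ * h⁻¹ by
      simp only [commutatorElement_def]; group, ← hw]
    exact c.conj_ker h hwk
  have e2 : ⁅h * U * h⁻¹, h * V * h⁻¹⁆ = ⁅U ^ i, V ^ l⁆ :=
    c.comm_eq (by rw [map_mul, map_mul, map_inv, hU, hu, map_pow, hU])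
      (by rw [map_mul, map_mul, map_inv, hV, hv, map_pow, hV])
  rw [e2, comm_pow hwc hrel] at e1
  have hwp : w ^ p = 1 := c.pow_ker hwk
  have h1 : w = 1 := by
    by_contra hne1
    haveI := Fact.mk hp
    have ho : orderOf w = p := orderOf_eq_prime hwp hne1
    have h' : w ^ ((i * l) % p) = w ^ 1 := by
      rw [pow_one, ← ho, pow_mod_orderOf]
      exact e1
    rw [pow_inj_mod, ho, Nat.mod_mod, Nat.mod_eq_of_lt hp.one_lt] at h'
    exact hne h'
  rw [hrel, h1, one_mul]

/-- Commutators of elements generated by a set lie in a central cyclic group containing the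
commutators of the set. -/
theorem commutator_mem_zpowers {S : Set Γ} {z : Γ} (hz : ∀ x ∈ Subgroup.closure S, x * z = z * x)
    (hS : ∀ x ∈ S, ∀ y ∈ S, ⁅x, y⁆ ∈ Subgroup.zpowers z) {x y : Γ} (hx : x ∈ Subgroup.closure S)
    (hy : y ∈ Subgroup.closure S) : ⁅x, y⁆ ∈ Subgroup.zpowers z := by
  have hcent : ∀ a ∈ Subgroup.closure S, ∀ k ∈ Subgroup.zpowers z, a * k * a⁻¹ = k := by
    rintro a ha k ⟨n, rfl⟩
    simp only
    rw [(Commute.zpow_right (hz a ha) n).eq, mul_inv_cancel_right]
  have step : ∀ y ∈ Subgroup.closure S, (∀ s ∈ S, ⁅s, y⁆ ∈ Subgroup.zpowers z) →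
      ∀ x ∈ Subgroup.closure S, ⁅x, y⁆ ∈ Subgroup.zpowers z := by
    intro y hy h x hx
    induction hx using Subgroup.closure_induction with
    | mem s hs => exact h s hs
    | one => rw [commutatorElement_one_left]; exact one_mem _
    | mul a b ha _ iha ihb =>
      rw [show ⁅a * b, y⁆ = a * ⁅b, y⁆ * a⁻¹ * ⁅a, y⁆ by simp only [commutatorElement_def]; group,
        hcent a ha _ ihb]
      exact mul_mem ihb iha
    | inv a ha iha =>
      rw [show ⁅a⁻¹, y⁆ = a⁻¹ * ⁅a, y⁆⁻¹ * a⁻¹⁻¹ by simp only [commutatorElement_def]; group,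
        hcent _ (inv_mem ha) _ (inv_mem iha)]
      exact inv_mem iha
  refine step y hy (fun s hs => ?_) x hx
  rw [← commutatorElement_inv]
  exact inv_mem (step s (Subgroup.subset_closure hs) (fun u hu => hS u hu s hs) y hy)

variable [Finite Γ]

/-- No cover over a Sylow subgroup generated by two elements whose lifts commute. -/
theorem no_cover_abelian [Fact p.Prime] (c : PrimeCover σ e p) (he : e ∈ commutator Γ) (T : Sylow p G)
    {u v : G} (hT : (T : Subgroup G) ≤ Subgroup.closure {u, v})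
    (hlift : ∀ U V : Γ, σ U = u → σ V = v → U * V = V * U) : False := by
  obtain ⟨U, rfl⟩ := c.surj u
  obtain ⟨V, rfl⟩ := c.surj v
  have hUV := hlift U V rfl rfl
  have hcomm := c.mem_commutator he T
  have hle : ⁅(T : Subgroup G).comap σ, (T : Subgroup G).comap σ⁆ ≤ Subgroup.zpowers (1 : Γ) := by
    rw [Subgroup.commutator_le]
    intro x hx y hy
    have hm : ∀ g ∈ (T : Subgroup G), ∃ m ∈ Subgroup.closure ({U, V} : Set Γ), σ m = g := by
      intro g hg
      have h := hT hg
      rwa [← Set.image_pair, ← MonoidHom.map_closure, Subgroup.mem_map] at h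
    obtain ⟨x', hx', ex⟩ := hm _ hx
    obtain ⟨y', hy', ey⟩ := hm _ hy
    rw [c.comm_eq ex.symm ey.symm]
    refine commutator_mem_zpowers (fun w _ => by simp) (fun a ha b hb => ?_) hx' hy'
    suffices ⁅a, b⁆ = 1 by rw [this]; exact one_mem _
    rw [commutatorElement_eq_one_iff_mul_comm]
    simp only [Set.mem_insert_iff, Set.mem_singleton_iff] at ha hb
    rcases ha with rfl | rfl <;> rcases hb with rfl | rfl
    · rfl
    · exact hUV
    · exact hUV.symm
    · rfl
  have h1 := hle hcomm
  rw [Subgroup.zpowers_one_eq_bot, Subgroup.mem_bot] at h1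
  have := c.order
  rw [h1, orderOf_one] at this
  exact (Nat.Prime.one_lt Fact.out).ne this

/-- No cover over a cyclic Sylow subgroup. -/
theorem no_cover_cyclic [Fact p.Prime] (c : PrimeCover σ e p) (he : e ∈ commutator Γ) (T : Sylow p G)
    {u : G} (hT : (T : Subgroup G) ≤ Subgroup.zpowers u) : False := by
  refine no_cover_abelian c he T (u := u) (v := u)
    (hT.trans (Subgroup.zpowers_le.2 (Subgroup.subset_closure (by simp)))) fun U V hU hV => ?_
  obtain ⟨z, hz, rfl⟩ := c.exists_of_map_eq (hV.trans hU.symm)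
  calc U * (U * z) = U * (z * U) := by rw [c.comm U hz]
    _ = U * z * U := by rw [mul_assoc]

/-- No cover over an extraspecial Sylow subgroup of exponent `p`. -/
theorem no_cover_heisenberg [Fact p.Prime] (c : PrimeCover σ e p) (he : e ∈ commutator Γ) (T : Sylow p G)
    {u v : G} (hT : (T : Subgroup G) ≤ Subgroup.closure {u, v}) (hup : u ^ p = 1) (hne : ⁅u, v⁆ ≠ 1)
    (hu : ∀ U Z : Γ, σ U = u → σ Z = ⁅u, v⁆ → U * Z = Z * U)
    (hv : ∀ V Z : Γ, σ V = v → σ Z = ⁅u, v⁆ → V * Z = Z * V) : False := by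
  obtain ⟨U, rfl⟩ := c.surj u
  obtain ⟨V, rfl⟩ := c.surj v
  obtain ⟨Z, hZ⟩ : ∃ Z, Z = ⁅U, V⁆ := ⟨_, rfl⟩
  have hσZ : σ Z = ⁅σ U, σ V⁆ := by rw [hZ, map_commutatorElement]
  have hUZ := hu U Z rfl hσZ
  have hVZ := hv V Z rfl hσZ
  have hcl : ∀ x ∈ Subgroup.closure ({U, V} : Set Γ), x * Z = Z * x := by
    intro x hx
    have hle : Subgroup.closure ({U, V} : Set Γ) ≤ Subgroup.centralizer {Z} := by
      rw [Subgroup.closure_le]
      rintro w (rfl | rfl)
      · exact Subgroup.mem_centralizer_singleton_iff.2 hUZ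
      · exact Subgroup.mem_centralizer_singleton_iff.2 hVZ
    exact Subgroup.mem_centralizer_singleton_iff.1 (hle hx)
  have hrel : U * V = Z * (V * U) := by rw [hZ, commutatorElement_def]; group
  have hpow : U ^ p * V = Z ^ p * (V * U ^ p) := by
    have h : ∀ i : ℕ, U ^ i * V = Z ^ i * (V * U ^ i) := by
      intro i
      induction i with
      | zero => simp
      | succ i ih =>
        calc U ^ (i + 1) * V = U ^ i * (U * V) := by rw [pow_succ, mul_assoc]
          _ = (U ^ i * Z) * (V * U) := by rw [hrel]; simp [mul_assoc]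
          _ = Z * (U ^ i * V) * U := by rw [(Commute.pow_left hUZ i).eq]; simp [mul_assoc]
          _ = _ := by rw [ih, pow_succ' Z, pow_succ U]; simp [mul_assoc]
    exact h p
  have hZp : Z ^ p = 1 := by
    have hk : U ^ p ∈ σ.ker := by rw [MonoidHom.mem_ker, map_pow, hup]
    rw [← c.comm V hk] at hpow
    exact right_eq_mul.1 hpow
  have hcomm := c.mem_commutator he T
  have hle : ⁅(T : Subgroup G).comap σ, (T : Subgroup G).comap σ⁆ ≤ Subgroup.zpowers Z := by
    rw [Subgroup.commutator_le]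
    intro x hx y hy
    have hm : ∀ g ∈ (T : Subgroup G), ∃ m ∈ Subgroup.closure ({U, V} : Set Γ), σ m = g := by
      intro g hg
      have h := hT hg
      rwa [← Set.image_pair, ← MonoidHom.map_closure, Subgroup.mem_map] at h
    obtain ⟨x', hx', ex⟩ := hm _ hx
    obtain ⟨y', hy', ey⟩ := hm _ hy
    rw [c.comm_eq ex.symm ey.symm]
    refine commutator_mem_zpowers hcl (fun a ha b hb => ?_) hx' hy'
    simp only [Set.mem_insert_iff, Set.mem_singleton_iff] at ha hb
    rcases ha with rfl | rfl <;> rcases hb with rfl | rfl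
    · rw [commutatorElement_self]; exact one_mem _
    · rw [← hZ]; exact Subgroup.mem_zpowers _
    · rw [← commutatorElement_inv, ← hZ]; exact inv_mem (Subgroup.mem_zpowers _)
    · rw [commutatorElement_self]; exact one_mem _
  obtain ⟨n, hn⟩ := hle hcomm
  simp only at hn
  have h1 : (σ Z) ^ n = 1 := by rw [← map_zpow, hn, MonoidHom.mem_ker.1 c.e_mem]
  have hp : (p : ℤ) ∣ n := by
    rw [← orderOf_dvd_iff_zpow_eq_one] at h1
    have ho : orderOf (σ Z) = p := orderOf_eq_prime (by rw [← map_pow, hZp, map_one]) (hσZ ▸ hne)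
    rwa [ho] at h1
  obtain ⟨m, rfl⟩ := hp
  rw [zpow_mul, zpow_natCast, hZp, one_zpow] at hn
  have := c.order
  rw [← hn, orderOf_one] at this
  exact (Nat.Prime.one_lt Fact.out).ne this

end CfsgLib.MathieuCover
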