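import Cfsg.Agent.MathieuCover.Collect
set_option autoImplicit false

/-!
A certified presentation of a Sylow 2-subgroup excludes a double cover with kernel in the
commutator subgroup.
-/

namespace CfsgLib.MathieuCover

open scoped commutatorElement
open CfsgLib.Schur

/-- Descending below a bound. -/
def descBelow : ℕ → List ℕ → Bool
  | _, [] => true
  | b, j :: r => Nat.blt j b && descBelow j r

/-- The stackList below a bound. -/
def stackList : ℕ → List (List ℕ)
  | 0 => [[]]
  | n + 1 => stackList n ++ (stackList n).map (n :: ·)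

theorem length_stackList : ∀ n, (stackList n).length = 2 ^ n
  | 0 => rfl
  | n + 1 => by rw [stackList, List.length_append, List.length_map, length_stackList n, pow_succ]; ring

theorem mem_stackList : ∀ (n : ℕ) {st : List ℕ}, descBelow n st = true → st ∈ stackList n
  | 0, [], _ => List.mem_singleton_self _
  | 0, j :: r, h => by simp [descBelow] at h
  | n + 1, [], _ => List.mem_append_left _ (mem_stackList n rfl)
  | n + 1, j :: r, h => by
    rw [descBelow, Bool.and_eq_true, Nat.blt_eq] at h
    rcases Nat.lt_or_ge j n with hj | hj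
    · refine List.mem_append_left _ (mem_stackList n ?_)
      rw [descBelow, Bool.and_eq_true, Nat.blt_eq]
      exact ⟨hj, h.2⟩
    · obtain rfl : j = n := by omega
      exact List.mem_append_right _ (List.mem_map.2 ⟨r, mem_stackList _ h.2, rfl⟩)

/-- A certificate of splitting. -/
structure Split where
  P : Pres
  fuel : ℕ
  eqs : List Eqn
  combos : List (List ℕ)

/-- Whether a list of natural numbers stays below a bound. -/
def below (n : ℕ) (w : List ℕ) : Bool := w.all fun x => Nat.blt x n

/-- The check of one relation. -/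
def Pres.relOk (P : Pres) (j i : ℕ) : Bool :=
  below P.n (P.row j i).1 &&
  (bif Nat.beq (P.row j i).2 0 then
    match (P.row j i).1 with
    | [k] => match P.defs.getD k none with
      | some (i', j') => Nat.beq i' i && Nat.beq j' j
      | none => false
    | _ => false
  else (List.range P.tails.length).any fun k => Nat.beq (P.row j i).2 (2 ^ k) &&
    Nat.beq (P.tails.getD k (0, 0)).1 i && Nat.beq (P.tails.getD k (0, 0)).2 j)

/-- The check of the shape of a presentation. -/
def Pres.shapeOk (P : Pres) : Bool :=
  (List.range P.n).all (fun j => (List.range (j + 1)).all fun i => P.relOk j i) &&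
  (List.range P.n).all (fun k => match P.defs.getD k none with
    | some (i, j) => Nat.blt j k && Nat.ble i j && eqL (P.row j i).1 [k] && Nat.beq (P.row j i).2 0
    | none => true) &&
  P.tails.all (fun e => Nat.blt e.2 P.n && Nat.ble e.1 e.2)

/-- The bounds of an equation. -/
def Eqn.bounded (n : ℕ) : Eqn → Bool
  | .assoc pre mid post => below n (pre ++ mid ++ post)
  | .fus _ us vs _ => us.all (below n) && vs.all (below n) && Nat.beq us.length vs.length

/-- The combinatorial checks. -/
def Split.ok (C : Split) : Bool :=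
  C.P.shapeOk &&
  C.eqs.all (fun q => q.bounded C.P.n && (C.P.eqnMask C.fuel q).isSome) &&
  (List.range C.P.tails.length).all (fun k =>
    Nat.beq (combo (C.eqs.map fun q => (C.P.eqnMask C.fuel q).getD 0) (C.combos.getD k [])) (2 ^ k)) &&
  (stackList C.P.n).all (fun st => (List.range C.P.n).all fun i =>
    match C.P.col C.fuel [] (st.reverse ++ [i]) 0 with
    | some r => descBelow C.P.n r.1
    | none => false)

variable {G : Type*} [Group G] {Γ : Type*} [Group Γ]

/-- Lifts, the defined generators being given by their relations. -/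
def liftA (P : Pres) (b : ℕ → Γ) : ℕ → ℕ → Γ
  | 0, k => b k
  | f + 1, k =>
    match P.defs.getD k none with
    | some (i, j) => (if i = j then 1 else liftA P b f i * liftA P b f j)⁻¹ * (liftA P b f j * liftA P b f i)
    | none => b k

theorem liftA_stable {P : Pres} (hdef : ∀ k < P.n, ∀ i j, P.defs.getD k none = some (i, j) → i < k ∧ j < k)
    (b : ℕ → Γ) : ∀ k, k < P.n → ∀ f g, k < f → k < g → liftA P b f k = liftA P b g k := by
  intro k
  induction k using Nat.strong_induction_on with
  | _ k ih =>
    intro hk f g hf hg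
    obtain ⟨f, rfl⟩ := Nat.exists_eq_succ_of_ne_zero (by omega : f ≠ 0)
    obtain ⟨g, rfl⟩ := Nat.exists_eq_succ_of_ne_zero (by omega : g ≠ 0)
    simp only [liftA]
    cases hd : P.defs.getD k none with
    | none => rfl
    | some d =>
      obtain ⟨i, j⟩ := d
      obtain ⟨hi, hj⟩ := hdef k hk i j hd
      simp only
      rw [ih i hi (by omega) f g (by omega) (by omega), ih j hj (by omega) f g (by omega) (by omega)]

/-- **A certified Sylow 2-subgroup excludes a double cover.** -/
theorem no_cover [Finite Γ] {σ : Γ →* G} {e : Γ} (c : PrimeCover σ e 2) (he : e ∈ commutator Γ)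
    (T : Sylow 2 G) (C : Split) (hC : C.ok = true) (a : ℕ → G) (gs : ℕ → G)
    (hrel : ∀ j < C.P.n, ∀ i ≤ j, a j * a i = prodW a (C.P.rhs j i))
    (hT : (T : Subgroup G) ≤ Subgroup.closure {x | ∃ k < C.P.n, a k = x})
    (hcard : Nat.card (T : Subgroup G) = 2 ^ C.P.n)
    (hfus : ∀ g us vs loops, Eqn.fus g us vs loops ∈ C.eqs → ∀ i < us.length,
      gs g * prodW a (us.getD i []) * (gs g)⁻¹ = prodW a (vs.getD i [])) : False := by
  classical
  haveI : Fact (Nat.Prime 2) := ⟨Nat.prime_two⟩
  simp only [Split.ok, Pres.shapeOk, Bool.and_eq_true, List.all_eq_true, List.mem_range] at hC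
  obtain ⟨⟨⟨⟨⟨hrels, hdefs⟩, htails⟩, heqs⟩, hcombo⟩, hclosed⟩ := hC
  have hdef : ∀ k < C.P.n, ∀ i j, C.P.defs.getD k none = some (i, j) →
      j < k ∧ i ≤ j ∧ (C.P.row j i).1 = [k] ∧ (C.P.row j i).2 = 0 := by
    intro k hk i j hd
    have h := hdefs k hk
    rw [hd] at h
    simp only [Bool.and_eq_true, Nat.blt_eq, Nat.ble_eq, Nat.beq_eq] at h
    exact ⟨h.1.1.1, h.1.1.2, eq_of_eqL h.1.2, h.2⟩
  have hrowlt : ∀ j < C.P.n, ∀ i ≤ j, ∀ x ∈ C.P.rhs j i, x < C.P.n := by
    intro j hj i hi x hx
    have h := hrels j hj i (by omega)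
    simp only [Pres.relOk, below, Bool.and_eq_true, List.all_eq_true, Nat.blt_eq] at h
    rw [Pres.rhs] at hx
    cases hb : Nat.beq i j with
    | true => rw [hb, cond_true] at hx; exact h.1 x hx
    | false =>
      rw [hb, cond_false] at hx
      rcases List.mem_cons.1 hx with rfl | hx
      · omega
      rcases List.mem_cons.1 hx with rfl | hx
      · exact hj
      exact h.1 x hx
  -- the lifts
  let b : ℕ → Γ := fun k => Function.surjInv c.surj (a k)
  set A : ℕ → Γ := fun k => liftA C.P b (k + 1) k with hA
  have hdef' : ∀ k < C.P.n, ∀ i j, C.P.defs.getD k none = some (i, j) → i < k ∧ j < k := fun k hk i j hd => by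
    obtain ⟨h1, h2, -, -⟩ := hdef k hk i j hd
    omega
  have hAdef : ∀ k < C.P.n, ∀ i j, C.P.defs.getD k none = some (i, j) →
      A k = (if i = j then 1 else A i * A j)⁻¹ * (A j * A i) := by
    intro k hk i j hd
    obtain ⟨hi, hj⟩ := hdef' k hk i j hd
    show liftA C.P b (k + 1) k = _
    rw [liftA, hd]
    simp only [hA]
    rw [liftA_stable hdef' b i (by omega) k (i + 1) hi (by omega),
      liftA_stable hdef' b j (by omega) k (j + 1) hj (by omega)]
  have hσA : ∀ k < C.P.n, σ (A k) = a k := by
    intro k
    induction k using Nat.strong_induction_on with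
    | _ k ih =>
      intro hk
      cases hd : C.P.defs.getD k none with
      | none =>
        show σ (liftA C.P b (k + 1) k) = _
        rw [liftA, hd]
        exact Function.surjInv_eq c.surj _
      | some d =>
        obtain ⟨i, j⟩ := d
        obtain ⟨hi, hj⟩ := hdef' k hk i j hd
        obtain ⟨-, hij, hrow, -⟩ := hdef k hk i j hd
        have e1 := hrel j (by omega) i hij
        rw [Pres.rhs, hrow] at e1
        rw [hAdef k hk i j hd, map_mul, map_inv, apply_ite σ, map_one, map_mul, map_mul, ih i hi (by omega),
          ih j hj (by omega), e1]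
        cases hb : Nat.beq i j with
        | true =>
          obtain rfl := Nat.eq_of_beq_eq_true hb
          simp [prodW]
        | false =>
          rw [if_neg (fun e' => by simp [e'] at hb), cond_false]
          simp [prodW, mul_assoc]
  have hσW : ∀ w, (∀ x ∈ w, x < C.P.n) → σ (prodW A w) = prodW a w := by
    intro w
    induction w with
    | nil => intro _; exact map_one σ
    | cons i w ih =>
      intro h
      rw [prodW, prodW, map_mul, hσA i (h i List.mem_cons_self), ih fun x hx => h x (List.mem_cons_of_mem _ hx)]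
  -- the unknown tails
  have hexp : ∀ x y : Γ, σ x = σ y → ∃ k : ℕ, x = y * e ^ k := by
    intro x y hxy
    obtain ⟨z, hz, rfl⟩ := c.exists_of_map_eq hxy
    rw [c.gen, ← mem_powers_iff_mem_zpowers] at hz
    obtain ⟨k, rfl⟩ := hz
    exact ⟨k, rfl⟩
  have htail : ∀ p ∈ C.P.tails, ∃ k : ℕ, A p.2 * A p.1 = prodW A (C.P.rhs p.2 p.1) * e ^ k := by
    intro p hp
    have h := htails p hp
    rw [Nat.blt_eq, Nat.ble_eq] at h
    refine hexp _ _ ?_
    rw [map_mul, hσA _ h.1, hσA _ (lt_of_le_of_lt h.2 h.1), hσW _ (hrowlt _ h.1 _ h.2), hrel _ h.1 _ h.2]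
  set t : List ℕ := C.P.tails.pmap (fun p hp => (htail p hp).choose) (fun _ h => h) with ht
  have htlen : t.length = C.P.tails.length := by rw [ht, List.length_pmap]
  have h2 : e ^ 2 = 1 := c.pow_ker c.e_mem
  have hcc : ∀ x, x * e = e * x := fun x => c.comm x c.e_mem
  have hArel : ∀ j < C.P.n, ∀ i ≤ j, A j * A i = prodW A (C.P.rhs j i) * e ^ mval t (C.P.row j i).2 := by
    intro j hj i hi
    have h := hrels j hj i (by omega)
    simp only [Pres.relOk, Bool.and_eq_true] at h
    cases hm : Nat.beq (C.P.row j i).2 0 with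
    | true =>
      rw [hm, cond_true] at h
      rw [Nat.eq_of_beq_eq_true hm, mval_zero, pow_zero, mul_one, Pres.rhs]
      obtain ⟨k, hk⟩ : ∃ k, (C.P.row j i).1 = [k] := by
        rcases hw : (C.P.row j i).1 with _ | ⟨k, _ | ⟨k', w⟩⟩
        · rw [hw] at h; simp at h
        · exact ⟨k, rfl⟩
        · rw [hw] at h; simp at h
      rw [hk] at h ⊢
      obtain ⟨hkn, hk2⟩ := h
      simp only [below, List.all_cons, List.all_nil, Bool.and_true, Nat.blt_eq] at hkn
      simp only at hk2
      cases hd : C.P.defs.getD k none with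
      | none => rw [hd] at hk2; exact absurd hk2 Bool.false_ne_true
      | some d =>
        obtain ⟨i', j'⟩ := d
        simp only [hd, Bool.and_eq_true, Nat.beq_eq] at hk2
        obtain ⟨rfl, rfl⟩ := hk2
        cases hb : Nat.beq i' j' with
        | true =>
          obtain rfl := Nat.eq_of_beq_eq_true hb
          rw [cond_true, prodW, prodW, hAdef k hkn _ _ hd, if_pos rfl]
          simp
        | false =>
          rw [cond_false, prodW, prodW, prodW, prodW, hAdef k hkn _ _ hd,
            if_neg (fun e' => by simp [e'] at hb)]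
          group
    | false =>
      rw [hm, cond_false, List.any_eq_true] at h
      obtain ⟨k, hk, hk'⟩ := h.2
      rw [List.mem_range] at hk
      simp only [Bool.and_eq_true, Nat.beq_eq] at hk'
      obtain ⟨⟨hpow, hi'⟩, hj'⟩ := hk'
      rw [List.getD_eq_getElem _ _ hk] at hi' hj'
      have hsp := (htail C.P.tails[k] (List.getElem_mem hk)).choose_spec
      rw [hpow, mval_single t (htlen ▸ hk), List.getD_eq_getElem _ _ (htlen ▸ hk)]
      simp only [ht, List.getElem_pmap]
      simp only [hi', hj'] at hsp ⊢
      exact hsp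
  -- all tails vanish
  have hmask : ∀ m ∈ C.eqs.map (fun q => (C.P.eqnMask C.fuel q).getD 0), e ^ mval t m = 1 := by
    intro m hm
    obtain ⟨q, hq, rfl⟩ := List.mem_map.1 hm
    obtain ⟨hb, hsome⟩ := heqs q hq
    obtain ⟨m, hm'⟩ := Option.isSome_iff_exists.1 hsome
    rw [hm', Option.getD_some]
    cases q with
    | assoc pre mid post =>
      simp only [Eqn.bounded, below, List.all_eq_true, Nat.blt_eq] at hb
      exact assoc_zero h2 hcc hArel hrowlt hm' hb
    | fus g us vs loops =>
      simp only [Eqn.bounded, below, Bool.and_eq_true, List.all_eq_true, Nat.blt_eq, Nat.beq_eq] at hb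
      obtain ⟨⟨hu, hv⟩, hlen⟩ := hb
      have hx : ∀ i, ∃ k : ℕ, i < us.length →
          Function.surjInv c.surj (gs g) * prodW A (us.getD i []) * (Function.surjInv c.surj (gs g))⁻¹ =
            prodW A (vs.getD i []) * e ^ k := by
        intro i
        by_cases hi : i < us.length
        · obtain ⟨k, hk⟩ := hexp (Function.surjInv c.surj (gs g) * prodW A (us.getD i []) *
              (Function.surjInv c.surj (gs g))⁻¹) (prodW A (vs.getD i [])) (by
            rw [map_mul, map_mul, map_inv, Function.surjInv_eq c.surj,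
              hσW _ (by rw [List.getD_eq_getElem _ _ hi]; exact hu _ (List.getElem_mem _)),
              hσW _ (by rw [List.getD_eq_getElem _ _ (by omega)]; exact hv _ (List.getElem_mem _)),
              hfus g us vs loops hq i hi])
          exact ⟨k, fun _ => hk⟩
        · exact ⟨0, fun h => absurd h hi⟩
      choose ξ hξ using hx
      exact fus_zero h2 hcc hArel hrowlt hm' hu hv _ ξ fun i hi => hξ i hi
  have hcomb : ∀ w, e ^ mval t (combo (C.eqs.map fun q => (C.P.eqnMask C.fuel q).getD 0) w) = 1 := by
    intro w
    induction w with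
    | nil => rw [combo, mval_zero, pow_zero]
    | cons i w ih =>
      rw [combo, pow_mval_xor h2, ih, mul_one]
      by_cases hi : i < (C.eqs.map fun q => (C.P.eqnMask C.fuel q).getD 0).length
      · rw [List.getD_eq_getElem _ _ hi]; exact hmask _ (List.getElem_mem _)
      · rw [List.getD_eq_default _ _ (by omega), mval_zero, pow_zero]
  have hmv : ∀ m, e ^ mval t m = 1 := by
    intro m
    have key : ∀ k ∈ Finset.range t.length, e ^ (if m.testBit k then t.getD k 0 else 0) = 1 := by
      intro k hk
      rw [Finset.mem_range, htlen] at hk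
      split
      · rw [← mval_single t (htlen ▸ hk), ← Nat.eq_of_beq_eq_true (hcombo k hk)]
        exact hcomb _
      · exact pow_zero _
    rw [mval]
    have key2 : ∀ s ⊆ Finset.range t.length, e ^ (∑ k ∈ s, if m.testBit k then t.getD k 0 else 0) = 1 := by
      intro s
      induction s using Finset.induction_on with
      | empty => intro _; simp
      | @insert k s hk ih =>
        intro hs
        rw [Finset.sum_insert hk, pow_add, key k (hs (Finset.mem_insert_self _ _)),
          ih ((Finset.subset_insert _ _).trans hs), mul_one]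
    exact key2 _ (Finset.Subset.refl _)
  -- the subgroup of the lifts
  set S : Set Γ := {x | ∃ st ∈ stackList C.P.n, prodS A st = x} with hS
  have hstk : ∀ n, ∀ st ∈ stackList n, ∀ x ∈ st, x < n := by
    intro n
    induction n with
    | zero => intro st hst x hx; simp [stackList] at hst; subst hst; simp at hx
    | succ n ih =>
      intro st hst x hx
      rw [stackList, List.mem_append, List.mem_map] at hst
      rcases hst with hst | ⟨st', hst', rfl⟩
      · exact (ih st hst x hx).trans (Nat.lt_succ_self n)
      · rcases List.mem_cons.1 hx with rfl | hx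
        · exact Nat.lt_succ_self _
        · exact (ih st' hst' x hx).trans (Nat.lt_succ_self n)
  have hSmul : ∀ x ∈ S, ∀ i < C.P.n, x * A i ∈ S := by
    rintro _ ⟨st, hst, rfl⟩ i hi
    have h := hclosed st hst i hi
    cases hr : C.P.col C.fuel [] (st.reverse ++ [i]) 0 with
    | none => rw [hr] at h; simp at h
    | some r =>
      rw [hr] at h
      obtain ⟨e1, -⟩ := col_nil h2 hcc hArel hrowlt hr (fun x hx => by
        rcases List.mem_append.1 hx with hx | hx
        · exact hstk _ st hst x (List.mem_reverse.1 hx)
        · rw [List.mem_singleton] at hx; exact hx ▸ hi)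
      rw [prodW_append, prodW_reverse, prodW, prodW, mul_one, hmv, mul_one] at e1
      exact ⟨r.1, mem_stackList _ h, e1.symm⟩
  set M : Subgroup Γ := Subgroup.closure {x | ∃ k < C.P.n, A k = x} with hM
  have hMS : ∀ m ∈ M, ∀ x ∈ S, x * m ∈ S := by
    intro m hm
    rw [hM, ← Subgroup.mem_toSubmonoid, Subgroup.closure_toSubmonoid_of_finite] at hm
    induction hm using Submonoid.closure_induction with
    | mem y hy => obtain ⟨k, hk, rfl⟩ := hy; exact fun x hx => hSmul x hx k hk
    | one => simp
    | mul y z _ _ ihy ihz => intro x hx; rw [← mul_assoc]; exact ihz _ (ihy x hx)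
  have hnil : ([] : List ℕ) ∈ stackList C.P.n := mem_stackList _ rfl
  have hmap : ∀ g ∈ (T : Subgroup G), ∃ m ∈ M, σ m = g := by
    intro g hg
    have hle : (T : Subgroup G) ≤ M.map σ := by
      refine hT.trans ((Subgroup.closure_le _).2 ?_)
      rintro _ ⟨k, hk, rfl⟩
      exact ⟨A k, Subgroup.subset_closure ⟨k, hk, rfl⟩, hσA k hk⟩
    obtain ⟨m, hm, e1⟩ := hle hg
    exact ⟨m, hm, e1⟩
  have hMin : ∀ m ∈ M, m ∈ S := fun m hm => by simpa using hMS m hm 1 ⟨[], hnil, rfl⟩
  set F : Finset (List ℕ) := (stackList C.P.n).toFinset with hF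
  have hsub : ((T : Subgroup G) : Set G) ⊆ ↑(F.image fun st => σ (prodS A st)) := by
    intro g hg
    obtain ⟨m, hm, rfl⟩ := hmap g hg
    obtain ⟨st, hst, rfl⟩ := hMin m hm
    exact Finset.mem_image.2 ⟨st, List.mem_toFinset.2 hst, rfl⟩
  have hinj : Set.InjOn (fun st => σ (prodS A st)) F := by
    refine Finset.card_image_iff.1 (le_antisymm Finset.card_image_le ?_)
    have h := Set.ncard_le_ncard hsub (Finset.finite_toSet _)
    rw [Set.ncard_coe_finset, ← Nat.card_coe_set_eq] at h
    calc F.card ≤ (stackList C.P.n).length := List.toFinset_card_le _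
      _ = 2 ^ C.P.n := length_stackList _
      _ ≤ _ := by rw [← hcard]; exact h
  -- conclusion
  have hker : ∀ m ∈ M, σ m = 1 → m = 1 := by
    intro m hm h1
    obtain ⟨st, hst, rfl⟩ := hMin m hm
    have := hinj (List.mem_toFinset.2 hst) (List.mem_toFinset.2 hnil) (by simpa [prodS] using h1)
    rw [this]; rfl
  have hcomm := c.mem_commutator he T
  have hle : ⁅(T : Subgroup G).comap σ, (T : Subgroup G).comap σ⁆ ≤ M := by
    rw [Subgroup.commutator_le]
    intro x hx y hy
    obtain ⟨x', hx', ex⟩ := hmap _ hx
    obtain ⟨y', hy', ey⟩ := hmap _ hy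
    rw [c.comm_eq ex.symm ey.symm, commutatorElement_def]
    exact mul_mem (mul_mem (mul_mem hx' hy') (inv_mem hx')) (inv_mem hy')
  have h1 := hker e (hle hcomm) c.e_mem
  have := c.order
  rw [h1, orderOf_one] at this
  omega

end CfsgLib.MathieuCover
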