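import Cfsg.Agent.MathieuOut.Check
import Cfsg.Agent.MathieuCover.Split
import Cfsg.Agent.MathieuCover.Odd
set_option autoImplicit false

/-!
The certificates of `Split` and `Odd` for stabilisers in the group of the code, elements being given
by coded tables.
-/

namespace CfsgLib.MathieuCover

open Cfsg CfsgLib.Golay CfsgLib.MathieuTwo CfsgLib.MathieuOut CfsgLib.Schur

variable {fixd : List ℕ}

open scoped Classical in
/-- The element with a given code, or `1`. -/
noncomputable def el (fixd : List ℕ) (c : ℕ) : ↥(fixGroup fixd) :=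
  if h : permOf (dec c) ∈ fixGroup fixd then ⟨_, h⟩ else 1

/-- The codes are in the group. -/
def elsOk (fixd : List ℕ) (cs : List ℕ) : Bool :=
  fixd.all (fun m => Nat.blt m 16777216) && cs.all fun c => Golay.gensOk [dec c] fixd

theorem el_spec {cs : List ℕ} (h : elsOk fixd cs = true) {c : ℕ} (hc : c ∈ cs) :
    validTab (dec c) = true ∧ (el fixd c : Equiv.Perm GolayPt) = permOf (dec c) := by
  simp only [elsOk, Bool.and_eq_true, List.all_eq_true] at h
  obtain ⟨hv, hm⟩ := permOf_mem_fixGroup (fun m hm => of_blt (h.1 m hm)) (h.2 c hc) (List.mem_singleton_self _)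
  exact ⟨hv, by rw [el, dif_pos hm]⟩

/-- Table of a product of listed codes. -/
def prodT (cs : List ℕ) : List ℕ → List ℕ
  | [] => idT
  | i :: w => mulTab (dec (cs.getD i 0)) (prodT cs w)

theorem prodT_spec {cs : List ℕ} (h : elsOk fixd cs = true) : ∀ {w : List ℕ}, (∀ i ∈ w, i < cs.length) →
    validTab (prodT cs w) = true ∧
      permOf (prodT cs w) = (prodW (fun i => el fixd (cs.getD i 0)) w : ↥(fixGroup fixd)).val
  | [], _ => ⟨validTab_idT, by rw [prodT, permOf_idT]; rfl⟩
  | i :: w, hw => by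
    obtain ⟨h1, h2⟩ := prodT_spec h (w := w) fun j hj => hw j (List.mem_cons_of_mem _ hj)
    have hi := hw i List.mem_cons_self
    obtain ⟨v, e⟩ := el_spec h (c := cs.getD i 0)
      (by rw [List.getD_eq_getElem _ _ hi]; exact List.getElem_mem _)
    obtain ⟨h3, h4⟩ := mulTab_spec v h1
    exact ⟨h3, by rw [prodT, h4, prodW, Subgroup.coe_mul, h2, e]⟩

/-- The checks in the group for a certificate of splitting. -/
def splitOk (fixd : List ℕ) (C : Split) (cs gs : List ℕ) (S : List (List ℕ)) (Sw : List (List ℕ)) : Bool :=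
  elsOk fixd cs && elsOk fixd gs && Nat.beq cs.length C.P.n && C.ok &&
  ((List.range C.P.n).all fun j => (List.range (j + 1)).all fun i =>
    eqTab (mulTab (dec (cs.getD j 0)) (dec (cs.getD i 0))) (prodT cs (C.P.rhs j i))) &&
  (C.eqs.all fun q => match q with
    | .assoc _ _ _ => true
    | .fus g us vs _ => Nat.blt g gs.length && (List.range us.length).all fun i =>
      eqTab (mulTab (dec (gs.getD g 0)) (prodT cs (us.getD i [])))
        (mulTab (prodT cs (vs.getD i [])) (dec (gs.getD g 0)))) &&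
  Nat.beq S.length Sw.length &&
  (List.range S.length).all fun k => below C.P.n (Sw.getD k []) && eqTab (prodT cs (Sw.getD k [])) (S.getD k [])

/-- No double cover of a certified group. -/
theorem no_double_cover {C : Split} {cs gs : List ℕ} {S Sw : List (List ℕ)}
    (h : splitOk fixd C cs gs S Sw = true) {N : ℕ} (hle : grp S ≤ fixGroup fixd)
    (hS : Nat.card (grp S) = 2 ^ C.P.n) (hN : Nat.card (fixGroup fixd) = N) (hdvd : 2 ^ C.P.n ∣ N)
    (hnd : ¬ 2 ^ (C.P.n + 1) ∣ N) {Δ : Type} [Group Δ] [Finite Δ] (τ : Δ →* ↥(fixGroup fixd)) (e : Δ)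
    (hc : PrimeCover τ e 2) (he : e ∈ commutator Δ) : False := by
  haveI : Fact (Nat.Prime 2) := ⟨Nat.prime_two⟩
  simp only [splitOk, Bool.and_eq_true, List.all_eq_true, List.mem_range, eqTab_iff, Nat.beq_eq] at h
  obtain ⟨⟨⟨⟨⟨⟨⟨hcs, hgs⟩, hlen⟩, hC⟩, hrel⟩, hfus⟩, hlS⟩, hgen⟩ := h
  have hok : C.P.shapeOk = true ∧ (∀ q ∈ C.eqs, q.bounded C.P.n = true) := by
    have h := hC
    simp only [Split.ok, Bool.and_eq_true, List.all_eq_true] at h
    exact ⟨h.1.1.1, fun q hq => (h.1.1.2 q hq).1⟩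
  have hrows : ∀ j < C.P.n, ∀ i ≤ j, ∀ x ∈ C.P.rhs j i, x < cs.length := by
    intro j hj i hi x hx
    have h := hok.1
    simp only [Pres.shapeOk, Pres.relOk, below, Bool.and_eq_true, List.all_eq_true, List.mem_range,
      Nat.blt_eq] at h
    have h1 := (h.1.1 j hj i (by omega)).1
    rw [hlen]
    rw [Pres.rhs] at hx
    cases hb : Nat.beq i j with
    | true => rw [hb, cond_true] at hx; exact h1 x hx
    | false =>
      rw [hb, cond_false] at hx
      rcases List.mem_cons.1 hx with rfl | hx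
      · omega
      rcases List.mem_cons.1 hx with rfl | hx
      · exact hj
      exact h1 x hx
  set a : ℕ → ↥(fixGroup fixd) := fun i => el fixd (cs.getD i 0) with ha
  have hmemc : ∀ i < C.P.n, cs.getD i 0 ∈ cs := fun i hi => by
    rw [List.getD_eq_getElem _ _ (by omega)]; exact List.getElem_mem _
  have hcard : Nat.card ((grp S).subgroupOf (fixGroup fixd)) = 2 ^ C.P.n := by
    rw [Nat.card_congr (Subgroup.subgroupOfEquivOfLe hle).toEquiv, hS]
  have hpow : Nat.card ((grp S).subgroupOf (fixGroup fixd)) =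
      2 ^ (Nat.card ↥(fixGroup fixd)).factorization 2 := by
    rw [hcard, hN]
    have hN0 : N ≠ 0 := hN ▸ Nat.card_pos.ne'
    congr 1
    refine le_antisymm ((Nat.prime_two.pow_dvd_iff_le_factorization hN0).1 hdvd) ?_
    by_contra hh
    exact hnd ((Nat.prime_two.pow_dvd_iff_le_factorization hN0).2 (by omega))
  refine no_cover hc he (Sylow.ofCard _ hpow) C hC a (fun g => el fixd (gs.getD g 0)) ?_ ?_ ?_ ?_
  · intro j hj i hi
    obtain ⟨hjv, hje⟩ := el_spec hcs (hmemc j hj)
    obtain ⟨hiv, hie⟩ := el_spec hcs (hmemc i (by omega))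
    apply Subtype.ext
    rw [← (prodT_spec hcs (hrows j hj i hi)).2, ← hrel j hj i (by omega), (mulTab_spec hjv hiv).2,
      Subgroup.coe_mul, hje, hie]
  · rw [Sylow.coe_ofCard]
    have key : grp S ≤ (Subgroup.closure {x | ∃ k < C.P.n, a k = x}).map (fixGroup fixd).subtype := by
      refine (Subgroup.closure_le _).2 ?_
      rintro _ ⟨g, hg, rfl⟩
      obtain ⟨k, hk, rfl⟩ := List.getElem_of_mem hg
      obtain ⟨hb, he'⟩ := hgen k hk
      simp only [below, List.all_eq_true, Nat.blt_eq] at hb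
      rw [List.getD_eq_getElem S _ hk] at he'
      rw [← he', (prodT_spec hcs (fun i hi => hlen ▸ hb i hi)).2]
      refine Subgroup.mem_map_of_mem _ ?_
      generalize Sw.getD k [] = w at hb
      induction w with
      | nil => exact one_mem _
      | cons i w ih =>
        exact mul_mem (Subgroup.subset_closure ⟨i, hb i List.mem_cons_self, rfl⟩)
          (ih fun x hx => hb x (List.mem_cons_of_mem _ hx))
    intro x hx
    obtain ⟨y, hy, e'⟩ := key (Subgroup.mem_subgroupOf.1 hx)
    rwa [← Subtype.ext e']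
  · rw [Sylow.coe_ofCard]; exact hcard
  · intro g us vs loops hq i hi
    have hf := hfus _ hq
    have hb := hok.2 _ hq
    simp only [Bool.and_eq_true, Nat.blt_eq, List.all_eq_true, List.mem_range, eqTab_iff] at hf
    simp only [Eqn.bounded, below, Bool.and_eq_true, List.all_eq_true, Nat.blt_eq, Nat.beq_eq] at hb
    obtain ⟨⟨hu, hv⟩, hl⟩ := hb
    obtain ⟨hgv, hge⟩ := el_spec hgs (c := gs.getD g 0)
      (by rw [List.getD_eq_getElem _ _ hf.1]; exact List.getElem_mem _)
    obtain ⟨huv, hue⟩ := prodT_spec hcs (w := us.getD i []) fun x hx => by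
      rw [List.getD_eq_getElem _ _ hi] at hx; rw [hlen]; exact hu _ (List.getElem_mem _) x hx
    obtain ⟨hvv, hve⟩ := prodT_spec hcs (w := vs.getD i []) fun x hx => by
      rw [List.getD_eq_getElem _ _ (by omega)] at hx; rw [hlen]; exact hv _ (List.getElem_mem _) x hx
    rw [mul_inv_eq_iff_eq_mul]
    apply Subtype.ext
    rw [Subgroup.coe_mul, Subgroup.coe_mul, ← hue, ← hve, hge, ← (mulTab_spec hgv huv).2, hf.2 i hi,
      (mulTab_spec hvv hgv).2]

/-- The check of an element of prime order. -/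
def primeOk (fixd : List ℕ) (p x : ℕ) : Bool :=
  elsOk fixd [x] && eqTab (powT (dec x) p) idT && !(eqTab (dec x) idT)

theorem sylow_exists {G : Type*} [Group G] [Finite G] {p k : ℕ} [hp : Fact p.Prime] (H : Subgroup G)
    (hH : Nat.card H = p ^ k) (hd : p ^ k ∣ Nat.card G) (hnd : ¬ p ^ (k + 1) ∣ Nat.card G) :
    ∃ T : Sylow p G, (T : Subgroup G) = H := by
  have hpow : Nat.card H = p ^ (Nat.card G).factorization p := by
    rw [hH]
    congr 1
    refine le_antisymm ((hp.out.pow_dvd_iff_le_factorization Nat.card_pos.ne').1 hd) ?_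
    by_contra hh
    exact hnd ((hp.out.pow_dvd_iff_le_factorization Nat.card_pos.ne').2 (by omega))
  exact ⟨Sylow.ofCard H hpow, Sylow.coe_ofCard _ _⟩

/-- No cover of a degree dividing the order once only. -/
theorem no_cyclic_cover {p x N : ℕ} [hp : Fact p.Prime] (h : primeOk fixd p x = true)
    (hN : Nat.card (fixGroup fixd) = N) (hdvd : p ∣ N) (hnd : ¬ p ^ 2 ∣ N) {Δ : Type} [Group Δ] [Finite Δ]
    (τ : Δ →* ↥(fixGroup fixd)) (e : Δ) (hc : PrimeCover τ e p) (he : e ∈ commutator Δ) : False := by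
  simp only [primeOk, Bool.and_eq_true, eqTab_iff, Bool.not_eq_true'] at h
  obtain ⟨⟨hels, hpw⟩, hne⟩ := h
  obtain ⟨hv, hx⟩ := el_spec hels (List.mem_singleton_self x)
  have hord : orderOf (el fixd x) = p := by
    refine orderOf_eq_prime (Subtype.ext ?_) fun h1 => ?_
    · rw [Subgroup.coe_pow, hx, ← (powT_spec hv p).2, hpw, permOf_idT]; rfl
    · rw [eqTab_iff.2 ((eq_idT_iff hv).2 (hx ▸ congrArg Subtype.val h1))] at hne
      simp at hne
  obtain ⟨T, hT⟩ := sylow_exists (p := p) (k := 1) (Subgroup.zpowers (el fixd x))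
    (by rw [Nat.card_zpowers, hord, pow_one]) (by rw [pow_one, hN]; exact hdvd) (by rw [hN]; exact hnd)
  exact no_cover_cyclic hc he T (u := el fixd x) (le_of_eq hT)

/-- No cover of a degree prime to the order. -/
theorem no_coprime_cover {p N : ℕ} [hp : Fact p.Prime] (hN : Nat.card (fixGroup fixd) = N) (hnd : ¬ p ∣ N)
    {Δ : Type} [Group Δ] [Finite Δ] (τ : Δ →* ↥(fixGroup fixd)) (e : Δ) (hc : PrimeCover τ e p)
    (he : e ∈ commutator Δ) : False := by
  obtain ⟨T, hT⟩ := sylow_exists (p := p) (k := 0) (⊥ : Subgroup ↥(fixGroup fixd))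
    (by simp) (by simp) (by rw [pow_one, hN]; exact hnd)
  exact no_cover_cyclic hc he T (u := 1) (hT.le.trans bot_le)

/-- The check of a relation `g u g⁻¹ = u ^ i`, `g v g⁻¹ = v ^ l` with `u v = v u`. -/
def actOk (fixd : List ℕ) (u v g i l : ℕ) : Bool :=
  elsOk fixd [u, v, g] && eqTab (mulTab (dec u) (dec v)) (mulTab (dec v) (dec u)) &&
  eqTab (mulTab (dec g) (dec u)) (mulTab (powT (dec u) i) (dec g)) &&
  eqTab (mulTab (dec g) (dec v)) (mulTab (powT (dec v) l) (dec g))

theorem act_commute {p u v g i l : ℕ} [hp : Fact p.Prime] (h : actOk fixd u v g i l = true)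
    (hne : ¬ (i * l) % p = 1) {Δ : Type} [Group Δ] {τ : Δ →* ↥(fixGroup fixd)} {e : Δ}
    (hc : PrimeCover τ e p) {U V : Δ} (hU : τ U = el fixd u) (hV : τ V = el fixd v) : U * V = V * U := by
  simp only [actOk, Bool.and_eq_true, eqTab_iff] at h
  obtain ⟨⟨⟨hels, hcomm⟩, hgu⟩, hgv⟩ := h
  obtain ⟨uv, ue⟩ := el_spec hels (c := u) (by simp)
  obtain ⟨vv, ve⟩ := el_spec hels (c := v) (by simp)
  obtain ⟨gv, ge⟩ := el_spec hels (c := g) (by simp)
  refine lifts_commute hc hp.out (g := el fixd g) (i := i) (l := l) ?_ ?_ ?_ hne hU hV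
  · apply Subtype.ext
    rw [Subgroup.coe_mul, Subgroup.coe_mul, ue, ve, ← (mulTab_spec uv vv).2, hcomm, (mulTab_spec vv uv).2]
  · rw [mul_inv_eq_iff_eq_mul]
    apply Subtype.ext
    rw [Subgroup.coe_mul, Subgroup.coe_mul, Subgroup.coe_pow, ge, ue, ← (mulTab_spec gv uv).2, hgu,
      (mulTab_spec (powT_spec uv i).1 gv).2, (powT_spec uv i).2]
  · rw [mul_inv_eq_iff_eq_mul]
    apply Subtype.ext
    rw [Subgroup.coe_mul, Subgroup.coe_mul, Subgroup.coe_pow, ge, ve, ← (mulTab_spec gv vv).2, hgv,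
      (mulTab_spec (powT_spec vv l).1 gv).2, (powT_spec vv l).2]

theorem pair_sylow {p k u v N : ℕ} [hp : Fact p.Prime] {tree : STree}
    (hT : groupOk fixd [dec u, dec v] tree (p ^ k) = true) (hels : elsOk fixd [u, v] = true)
    (hN : Nat.card (fixGroup fixd) = N) (hdvd : p ^ k ∣ N) (hnd : ¬ p ^ (k + 1) ∣ N) :
    ∃ T : Sylow p ↥(fixGroup fixd), (T : Subgroup _) ≤ Subgroup.closure {el fixd u, el fixd v} := by
  have hle := MathieuTwo.grp_le hT
  obtain ⟨T, hTe⟩ := sylow_exists (p := p) (k := k) ((grp [dec u, dec v]).subgroupOf (fixGroup fixd))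
    (by rw [Nat.card_congr (Subgroup.subgroupOfEquivOfLe hle).toEquiv, card_grp hT])
    (by rw [hN]; exact hdvd) (by rw [hN]; exact hnd)
  obtain ⟨-, ue⟩ := el_spec hels (c := u) (by simp)
  obtain ⟨-, ve⟩ := el_spec hels (c := v) (by simp)
  have key : grp [dec u, dec v] ≤
      (Subgroup.closure {el fixd u, el fixd v}).map (fixGroup fixd).subtype := by
    refine (Subgroup.closure_le _).2 ?_
    rintro _ ⟨g, hg, rfl⟩
    simp only [List.mem_cons, List.not_mem_nil, or_false] at hg
    rcases hg with rfl | rfl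
    · exact ⟨el fixd u, Subgroup.subset_closure (by simp), ue⟩
    · exact ⟨el fixd v, Subgroup.subset_closure (by simp), ve⟩
  refine ⟨T, fun x hx => ?_⟩
  rw [hTe, Subgroup.mem_subgroupOf] at hx
  obtain ⟨y, hy, e'⟩ := key hx
  rwa [← Subtype.ext e']

end CfsgLib.MathieuCover
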