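import Cfsg.Agent.Schur.SylowCover
set_option autoImplicit false

/-!
Certificates that a central extension by a group of order two splits over a 2-subgroup: collection in
the extension of a power-commutator presentation, with the tails as unknowns, and equations between
the tails coming from consistency and from fusion.
-/

namespace CfsgLib.MathieuCover

/-- A presentation certificate. `rows` holds, for `i ≤ j` at place `j (j + 1) / 2 + i`, the word
replacing `j i` and the mask of its tail; `defs` says which generators are defined by which relation;
`tails` lists the relations carrying the unknowns. -/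
structure Pres where
  n : ℕ
  rows : List (List ℕ × ℕ)
  defs : List (Option (ℕ × ℕ))
  tails : List (ℕ × ℕ)

/-- The entry replacing `j i`. -/
def Pres.row (P : Pres) (j i : ℕ) : List ℕ × ℕ := P.rows.getD (j * (j + 1) / 2 + i) ([], 0)

/-- The right hand side replacing `j i`. -/
def Pres.rhs (P : Pres) (j i : ℕ) : List ℕ :=
  bif Nat.beq i j then (P.row j i).1 else i :: j :: (P.row j i).1

/-- Collection: a stack in descending order, pending letters and the mask collected so far. -/
def Pres.col (P : Pres) : ℕ → List ℕ → List ℕ → ℕ → Option (List ℕ × ℕ)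
  | _, st, [], m => some (st, m)
  | 0, _, _ :: _, _ => none
  | f + 1, [], i :: w, m => P.col f [i] w m
  | f + 1, j :: r, i :: w, m =>
    bif Nat.blt j i then P.col f (i :: j :: r) w m
    else P.col f r (P.rhs j i ++ w) (Nat.xor m (P.row j i).2)

variable {Γ : Type*} [Group Γ]

/-- Value of a word. -/
def prodW (A : ℕ → Γ) : List ℕ → Γ
  | [] => 1
  | i :: w => A i * prodW A w

/-- Value of a stack. -/
def prodS (A : ℕ → Γ) : List ℕ → Γ
  | [] => 1
  | j :: r => prodS A r * A j

theorem prodW_append (A : ℕ → Γ) : ∀ u w : List ℕ, prodW A (u ++ w) = prodW A u * prodW A w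
  | [], w => (one_mul _).symm
  | i :: u, w => by rw [List.cons_append, prodW, prodW, prodW_append A u w, mul_assoc]

theorem prodW_reverse (A : ℕ → Γ) : ∀ st : List ℕ, prodW A st.reverse = prodS A st
  | [] => rfl
  | j :: r => by rw [List.reverse_cons, prodW_append, prodW_reverse A r, prodS, prodW, prodW, mul_one]

theorem map_prodW {H : Type*} [Group H] (f : Γ →* H) (A : ℕ → Γ) :
    ∀ w : List ℕ, f (prodW A w) = prodW (fun i => f (A i)) w
  | [] => map_one f
  | i :: w => by rw [prodW, prodW, map_mul, map_prodW f A w]

theorem map_prodS {H : Type*} [Group H] (f : Γ →* H) (A : ℕ → Γ) :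
    ∀ w : List ℕ, f (prodS A w) = prodS (fun i => f (A i)) w
  | [] => map_one f
  | i :: w => by rw [prodS, prodS, map_mul, map_prodS f A w]

/-- The exponent attached to a mask. -/
def mval (t : List ℕ) (m : ℕ) : ℕ :=
  ∑ k ∈ Finset.range t.length, if m.testBit k then t.getD k 0 else 0

theorem pow_mval_xor {e : Γ} (h2 : e ^ 2 = 1) (t : List ℕ) (a b : ℕ) :
    e ^ mval t (Nat.xor a b) = e ^ mval t a * e ^ mval t b := by
  rw [← pow_add, mval, mval, mval, ← Finset.sum_add_distrib]
  have key : ∀ s : Finset ℕ,
      e ^ (∑ k ∈ s, if (Nat.xor a b).testBit k then t.getD k 0 else 0) =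
      e ^ (∑ k ∈ s, ((if a.testBit k then t.getD k 0 else 0) + if b.testBit k then t.getD k 0 else 0)) := by
    intro s
    induction s using Finset.induction_on with
    | empty => rfl
    | @insert k s hk ih =>
      rw [Finset.sum_insert hk, Finset.sum_insert hk, pow_add, pow_add, ih]
      congr 1
      rw [show (Nat.xor a b).testBit k = (a.testBit k ^^ b.testBit k) from Nat.testBit_xor a b k]
      cases a.testBit k <;> cases b.testBit k <;> simp [← two_mul, pow_mul, h2]
  exact key _

theorem mval_zero (t : List ℕ) : mval t 0 = 0 := by simp [mval]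

theorem mval_single (t : List ℕ) {k : ℕ} (hk : k < t.length) : mval t (2 ^ k) = t.getD k 0 := by
  rw [mval, Finset.sum_eq_single k]
  · simp
  · intro b _ hb
    simp [Ne.symm hb]
  · simp [hk]

/-- A loop of an equation coming from fusion: two words with equal value. -/
abbrev Loop : Type := List ℕ × List ℕ

/-- An equation between tails. -/
inductive Eqn
  | assoc (pre mid post : List ℕ)
  | fus (g : ℕ) (us vs : List (List ℕ)) (loops : List Loop)

/-- Expansion of a word in listed words. -/
def expand (us : List (List ℕ)) : List ℕ → List ℕ
  | [] => []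
  | i :: w => us.getD i [] ++ expand us w

theorem prodW_expand (A : ℕ → Γ) (us : List (List ℕ)) : ∀ w : List ℕ,
    prodW A (expand us w) = prodW (fun i => prodW A (us.getD i [])) w
  | [] => rfl
  | i :: w => by rw [expand, prodW_append, prodW_expand A us w, prodW]

/-- Occurrences. -/
def cnt (i : ℕ) : List ℕ → ℕ
  | [] => 0
  | j :: w => bif Nat.beq j i then cnt i w + 1 else cnt i w

/-- The letters of a list of loops. -/
def letters : List Loop → List ℕ
  | [] => []
  | l :: r => l.1 ++ l.2 ++ letters r

/-- Equality of two stacks. -/
def eqL : List ℕ → List ℕ → Bool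
  | [], [] => true
  | a :: r, b :: s => Nat.beq a b && eqL r s
  | _, _ => false

theorem eq_of_eqL : ∀ {a b : List ℕ}, eqL a b = true → a = b
  | [], [], _ => rfl
  | a :: r, b :: s, h => by
    rw [eqL, Bool.and_eq_true] at h
    rw [Nat.eq_of_beq_eq_true h.1, eq_of_eqL h.2]
  | [], _ :: _, h => by simp [eqL] at h
  | _ :: _, [], h => by simp [eqL] at h

/-- The mask of a loop. -/
def Pres.loopMask (P : Pres) (f : ℕ) (us vs : List (List ℕ)) (l : Loop) : Option ℕ :=
  match P.col f [] (expand us l.1) 0, P.col f [] (expand us l.2) 0,
    P.col f [] (expand vs l.1) 0, P.col f [] (expand vs l.2) 0 with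
  | some a, some b, some c, some d =>
    bif eqL a.1 b.1 && eqL c.1 d.1 then some (Nat.xor (Nat.xor a.2 b.2) (Nat.xor c.2 d.2)) else none
  | _, _, _, _ => none

/-- The mask of a list of loops. -/
def Pres.loopsMask (P : Pres) (f : ℕ) (us vs : List (List ℕ)) : List Loop → Option ℕ
  | [] => some 0
  | l :: r =>
    match P.loopMask f us vs l, P.loopsMask f us vs r with
    | some a, some b => some (Nat.xor a b)
    | _, _ => none

/-- The mask of an equation. -/
def Pres.eqnMask (P : Pres) (f : ℕ) : Eqn → Option ℕ
  | .assoc pre mid post =>
    match P.col f [] (pre ++ mid ++ post) 0, P.col f [] mid 0 with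
    | some a, some b =>
      match P.col f [] (pre ++ b.1.reverse ++ post) 0 with
      | some c => bif eqL a.1 c.1 then some (Nat.xor a.2 (Nat.xor b.2 c.2)) else none
      | none => none
    | _, _ => none
  | .fus _ us vs loops =>
    bif (List.range us.length).all (fun i => Nat.beq (cnt i (letters loops) % 2) 0) &&
        (letters loops).all (fun i => Nat.blt i us.length) then
      P.loopsMask f us vs loops
    else none

/-- Xor of the selected masks. -/
def combo (ms : List ℕ) : List ℕ → ℕ
  | [] => 0
  | i :: r => Nat.xor (ms.getD i 0) (combo ms r)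

section Sound

variable {P : Pres} {A : ℕ → Γ} {e : Γ} {t : List ℕ}

theorem col_sound (h2 : e ^ 2 = 1) (hc : ∀ x, x * e = e * x)
    (hrel : ∀ j < P.n, ∀ i ≤ j, A j * A i = prodW A (P.rhs j i) * e ^ mval t (P.row j i).2)
    (hrows : ∀ j < P.n, ∀ i ≤ j, ∀ x ∈ P.rhs j i, x < P.n) :
    ∀ (f : ℕ) (st w : List ℕ) (m : ℕ) {r : List ℕ × ℕ}, P.col f st w m = some r →
      (∀ x ∈ st, x < P.n) → (∀ x ∈ w, x < P.n) →
      prodS A st * prodW A w * e ^ mval t m = prodS A r.1 * e ^ mval t r.2 ∧ ∀ x ∈ r.1, x < P.n
  | f, st, [], m, r, h, hst, _ => by
    cases f <;> (rw [Pres.col, Option.some.injEq] at h; subst h; exact ⟨by rw [prodW, mul_one], hst⟩)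
  | 0, _, _ :: _, _, r, h, _, _ => by simp [Pres.col] at h
  | f + 1, [], i :: w, m, r, h, _, hw => by
    rw [Pres.col] at h
    obtain ⟨e1, e2⟩ := col_sound h2 hc hrel hrows f [i] w m h
      (fun x hx => by rw [List.mem_singleton] at hx; exact hx ▸ hw i List.mem_cons_self)
      (fun x hx => hw x (List.mem_cons_of_mem _ hx))
    exact ⟨by rw [← e1]; simp [prodS, prodW], e2⟩
  | f + 1, j :: st, i :: w, m, r, h, hst, hw => by
    rw [Pres.col] at h
    cases hji : Nat.blt j i with
    | true =>
      rw [hji, cond_true] at h
      obtain ⟨e1, e2⟩ := col_sound h2 hc hrel hrows f (i :: j :: st) w m h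
        (fun x hx => by
          rcases List.mem_cons.1 hx with rfl | hx
          · exact hw _ List.mem_cons_self
          · exact hst x hx)
        (fun x hx => hw x (List.mem_cons_of_mem _ hx))
      exact ⟨by rw [← e1]; simp [prodS, prodW, mul_assoc], e2⟩
    | false =>
      rw [hji, cond_false] at h
      have hij : i ≤ j := by
        by_contra hn
        rw [show Nat.blt j i = true by rw [Nat.blt_eq]; omega] at hji
        simp at hji
      have hj : j < P.n := hst j List.mem_cons_self
      obtain ⟨e1, e2⟩ := col_sound h2 hc hrel hrows f st _ _ h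
        (fun x hx => hst x (List.mem_cons_of_mem _ hx))
        (fun x hx => by
          rcases List.mem_append.1 hx with hx | hx
          · exact hrows j hj i hij x hx
          · exact hw x (List.mem_cons_of_mem _ hx))
      refine ⟨?_, e2⟩
      rw [← e1, prodW_append, pow_mval_xor h2]
      have hcp : ∀ (x : Γ) (k : ℕ), x * e ^ k = e ^ k * x := fun x k => (Commute.pow_right (hc x) k).eq
      calc prodS A (j :: st) * prodW A (i :: w) * e ^ mval t m
          = prodS A st * (A j * A i) * prodW A w * e ^ mval t m := by simp [prodS, prodW, mul_assoc]
        _ = prodS A st * prodW A (P.rhs j i) * (e ^ mval t (P.row j i).2 * prodW A w) * e ^ mval t m := by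
          rw [hrel j hj i hij]; simp [mul_assoc]
        _ = _ := by
          rw [← hcp, (Commute.pow_pow_self e (mval t m) (mval t (P.row j i).2)).eq]
          simp [mul_assoc]

variable (h2 : e ^ 2 = 1) (hc : ∀ x, x * e = e * x)
  (hrel : ∀ j < P.n, ∀ i ≤ j, A j * A i = prodW A (P.rhs j i) * e ^ mval t (P.row j i).2)
  (hrows : ∀ j < P.n, ∀ i ≤ j, ∀ x ∈ P.rhs j i, x < P.n)
include h2 hc hrel hrows

theorem col_nil {f : ℕ} {w : List ℕ} {r : List ℕ × ℕ} (h : P.col f [] w 0 = some r)
    (hw : ∀ x ∈ w, x < P.n) :
    prodW A w = prodS A r.1 * e ^ mval t r.2 ∧ ∀ x ∈ r.1, x < P.n := by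
  obtain ⟨e1, e2⟩ := col_sound h2 hc hrel hrows f [] w 0 h (by simp) hw
  rw [prodS, one_mul, mval_zero, pow_zero, mul_one] at e1
  exact ⟨e1, e2⟩

/-- Consistency gives an equation. -/
theorem assoc_zero {f : ℕ} {pre mid post : List ℕ} {m : ℕ}
    (h : P.eqnMask f (.assoc pre mid post) = some m) (hw : ∀ x ∈ pre ++ mid ++ post, x < P.n) :
    e ^ mval t m = 1 := by
  simp only [Pres.eqnMask] at h
  cases ha : P.col f [] (pre ++ mid ++ post) 0 with
  | none => rw [ha] at h; simp at h
  | some a =>
    cases hb : P.col f [] mid 0 with
    | none => rw [ha, hb] at h; simp at h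
    | some b =>
      rw [ha, hb] at h
      simp only at h
      cases hc' : P.col f [] (pre ++ b.1.reverse ++ post) 0 with
      | none => rw [hc'] at h; simp at h
      | some c =>
        rw [hc'] at h
        simp only at h
        cases hq : eqL a.1 c.1 with
        | false => rw [hq] at h; simp at h
        | true =>
          rw [hq, cond_true, Option.some.injEq] at h
          subst h
          have hmid : ∀ x ∈ mid, x < P.n := fun x hx =>
            hw x (List.mem_append_left _ (List.mem_append_right _ hx))
          obtain ⟨eb, hb'⟩ := col_nil h2 hc hrel hrows hb hmid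
          obtain ⟨ea, -⟩ := col_nil h2 hc hrel hrows ha hw
          obtain ⟨ec, -⟩ := col_nil h2 hc hrel hrows hc' (fun x hx => by
            rcases List.mem_append.1 hx with hx | hx
            · rcases List.mem_append.1 hx with hx | hx
              · exact hw x (List.mem_append_left _ (List.mem_append_left _ hx))
              · exact hb' x (List.mem_reverse.1 hx)
            · exact hw x (List.mem_append_right _ hx))
          rw [prodW_append, prodW_append, prodW_reverse] at ec
          rw [prodW_append, prodW_append, eb, eq_of_eqL hq] at ea
          have hcp : ∀ (x : Γ) (k : ℕ), x * e ^ k = e ^ k * x := fun x k => (Commute.pow_right (hc x) k).eq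
          have e4 : prodS A c.1 * (e ^ mval t c.2 * e ^ mval t b.2) = prodS A c.1 * e ^ mval t a.2 := by
            rw [← ea, ← mul_assoc, ← ec]
            simp [mul_assoc, hcp (prodW A post)]
          have e5 := mul_left_cancel e4
          rw [pow_mval_xor h2, pow_mval_xor h2, ← e5, ← pow_add, ← pow_add, ← pow_add,
            show mval t c.2 + mval t b.2 + (mval t b.2 + mval t c.2) = 2 * (mval t c.2 + mval t b.2) by ring,
            pow_mul, h2, one_pow]

/-- Fusion gives an equation. -/
theorem fus_zero {f : ℕ} {g0 : ℕ} {us vs : List (List ℕ)} {loops : List Loop} {m : ℕ}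
    (h : P.eqnMask f (.fus g0 us vs loops) = some m)
    (hu : ∀ w ∈ us, ∀ x ∈ w, x < P.n) (hv : ∀ w ∈ vs, ∀ x ∈ w, x < P.n)
    (g : Γ) (ξ : ℕ → ℕ) (hξ : ∀ i < us.length,
      g * prodW A (us.getD i []) * g⁻¹ = prodW A (vs.getD i []) * e ^ ξ i) :
    e ^ mval t m = 1 := by
  simp only [Pres.eqnMask] at h
  have hcp : ∀ (x : Γ) (k : ℕ), x * e ^ k = e ^ k * x := fun x k => (Commute.pow_right (hc x) k).eq
  set U : ℕ → Γ := fun i => prodW A (us.getD i [])
  set V : ℕ → Γ := fun i => prodW A (vs.getD i [])
  have hbound : ∀ (ws : List (List ℕ)), (∀ w ∈ ws, ∀ x ∈ w, x < P.n) → ∀ w : List ℕ,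
      ∀ x ∈ expand ws w, x < P.n := by
    intro ws hws w
    induction w with
    | nil => intro x hx; simp [expand] at hx
    | cons i w ih =>
      intro x hx
      rw [expand, List.mem_append] at hx
      rcases hx with hx | hx
      · by_cases hi : i < ws.length
        · rw [List.getD_eq_getElem _ _ hi] at hx; exact hws _ (List.getElem_mem _) x hx
        · rw [List.getD_eq_default _ _ (by omega)] at hx; simp at hx
      · exact ih x hx
  have key : ∀ w : List ℕ, (∀ i ∈ w, i < us.length) →
      g * prodW U w * g⁻¹ = prodW V w * e ^ (w.map ξ).sum := by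
    intro w
    induction w with
    | nil => intro _; simp [prodW]
    | cons i w ih =>
      intro hi
      have e1 := ih fun j hj => hi j (List.mem_cons_of_mem _ hj)
      have e0 : g * U i * g⁻¹ = V i * e ^ ξ i := hξ i (hi i List.mem_cons_self)
      calc g * prodW U (i :: w) * g⁻¹ = (g * U i * g⁻¹) * (g * prodW U w * g⁻¹) := by
            simp [prodW, mul_assoc]
        _ = V i * (e ^ ξ i * prodW V w) * e ^ (w.map ξ).sum := by rw [e0, e1]; simp [mul_assoc]
        _ = _ := by rw [← hcp]; simp [prodW, pow_add, mul_assoc]
  have hsum : ∀ (w : List ℕ), (∀ i ∈ w, i < us.length) →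
      (w.map ξ).sum = ∑ i ∈ Finset.range us.length, cnt i w * ξ i := by
    intro w
    induction w with
    | nil => intro _; simp [cnt]
    | cons j w ih =>
      intro hj
      rw [List.map_cons, List.sum_cons, ih fun i hi => hj i (List.mem_cons_of_mem _ hi)]
      have e1 : ∀ i, cnt i (j :: w) * ξ i = (if i = j then ξ i else 0) + cnt i w * ξ i := by
        intro i
        rw [cnt]
        cases hb : Nat.beq j i with
        | true => rw [if_pos (Nat.eq_of_beq_eq_true hb).symm, cond_true]; ring
        | false => rw [if_neg (fun e' => by simp [e'] at hb), cond_false, zero_add]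
      rw [Finset.sum_congr rfl fun i _ => e1 i, Finset.sum_add_distrib,
        Finset.sum_ite_eq' (Finset.range us.length) j ξ,
        if_pos (Finset.mem_range.2 (hj j List.mem_cons_self))]
  cases hcond : ((List.range us.length).all (fun i => Nat.beq (cnt i (letters loops) % 2) 0) &&
      (letters loops).all (fun i => Nat.blt i us.length)) with
  | false => rw [hcond] at h; simp at h
  | true =>
    rw [hcond, cond_true] at h
    rw [Bool.and_eq_true, List.all_eq_true, List.all_eq_true] at hcond
    obtain ⟨heven, hlet⟩ := hcond
    have hlet' : ∀ i ∈ letters loops, i < us.length := fun i hi => by simpa [Nat.blt_eq] using hlet i hi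
    have hmain : ∀ (ls : List Loop) (m : ℕ), P.loopsMask f us vs ls = some m →
        (∀ i ∈ letters ls, i < us.length) → e ^ mval t m = e ^ ((letters ls).map ξ).sum := by
      intro ls
      induction ls with
      | nil =>
        intro m hm _
        rw [Pres.loopsMask, Option.some.injEq] at hm
        subst hm
        simp [mval_zero, letters]
      | cons l ls ih =>
        intro m hm hl
        rw [Pres.loopsMask] at hm
        cases hm1 : P.loopMask f us vs l with
        | none => rw [hm1] at hm; simp at hm
        | some a =>
          cases hm2 : P.loopsMask f us vs ls with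
          | none => rw [hm1, hm2] at hm; simp at hm
          | some b =>
            rw [hm1, hm2] at hm
            simp only [Option.some.injEq] at hm
            subst hm
            rw [pow_mval_xor h2, ih b hm2 (fun i hi => hl i (List.mem_append_right _ hi)), letters,
              List.map_append, List.sum_append, pow_add]
            congr 1
            have hl1 : ∀ i ∈ l.1, i < us.length := fun i hi =>
              hl i (List.mem_append_left _ (List.mem_append_left _ hi))
            have hl2 : ∀ i ∈ l.2, i < us.length := fun i hi =>
              hl i (List.mem_append_left _ (List.mem_append_right _ hi))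
            simp only [Pres.loopMask] at hm1
            cases c1 : P.col f [] (expand us l.1) 0 with
            | none => rw [c1] at hm1; simp at hm1
            | some a1 =>
              cases c2 : P.col f [] (expand us l.2) 0 with
              | none => rw [c1, c2] at hm1; simp at hm1
              | some a2 =>
                cases c3 : P.col f [] (expand vs l.1) 0 with
                | none => rw [c1, c2, c3] at hm1; simp at hm1
                | some a3 =>
                  cases c4 : P.col f [] (expand vs l.2) 0 with
                  | none => rw [c1, c2, c3, c4] at hm1; simp at hm1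
                  | some a4 =>
                    rw [c1, c2, c3, c4] at hm1
                    simp only at hm1
                    cases hq : eqL a1.1 a2.1 && eqL a3.1 a4.1 with
                    | false => rw [hq] at hm1; simp at hm1
                    | true =>
                      rw [hq, cond_true, Option.some.injEq] at hm1
                      subst hm1
                      rw [Bool.and_eq_true] at hq
                      have k1 := key l.1 hl1
                      have k2 := key l.2 hl2
                      rw [← prodW_expand, ← prodW_expand,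
                        (col_nil h2 hc hrel hrows c1 (hbound us hu l.1)).1,
                        (col_nil h2 hc hrel hrows c3 (hbound vs hv l.1)).1] at k1
                      rw [← prodW_expand, ← prodW_expand,
                        (col_nil h2 hc hrel hrows c2 (hbound us hu l.2)).1,
                        (col_nil h2 hc hrel hrows c4 (hbound vs hv l.2)).1,
                        ← eq_of_eqL hq.1, ← eq_of_eqL hq.2] at k2
                      rw [pow_mval_xor h2, pow_mval_xor h2, pow_mval_xor h2, List.map_append,
                        List.sum_append, pow_add]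
                      have k3 : ∀ (S S' : Γ) (x y s : ℕ), g * (S * e ^ x) * g⁻¹ = S' * e ^ y * e ^ s →
                          g * S * g⁻¹ = S' * e ^ (y + s + x) := by
                        intro S S' x y s k
                        have : g * S * g⁻¹ * e ^ x = S' * e ^ y * e ^ s := by
                          rw [← k, show g * (S * e ^ x) * g⁻¹ = g * S * (e ^ x * g⁻¹) by group, ← hcp]
                          group
                        calc g * S * g⁻¹ = g * S * g⁻¹ * e ^ x * e ^ x := by
                              rw [mul_assoc (g * S * g⁻¹), ← pow_add, ← two_mul, pow_mul, h2, one_pow,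
                                mul_one]
                          _ = _ := by rw [this, pow_add, pow_add]; group
                      have q1 := k3 _ _ _ _ _ k1
                      have q2 := k3 _ _ _ _ _ k2
                      rw [q1] at q2
                      have q3 := mul_left_cancel q2
                      have hsq : ∀ k : ℕ, e ^ (2 * k) = 1 := fun k => by rw [pow_mul, h2, one_pow]
                      rw [← pow_add, ← pow_add, ← pow_add, ← pow_add]
                      calc e ^ (mval t a1.2 + mval t a2.2 + (mval t a3.2 + mval t a4.2))
                          = e ^ (mval t a1.2 + mval t a2.2 + (mval t a3.2 + mval t a4.2)) *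
                              e ^ (2 * ((l.1.map ξ).sum + (l.2.map ξ).sum)) := by rw [hsq, mul_one]
                        _ = e ^ ((l.1.map ξ).sum + (l.2.map ξ).sum) *
                            (e ^ (mval t a3.2 + (l.1.map ξ).sum + mval t a1.2) *
                              e ^ (mval t a4.2 + (l.2.map ξ).sum + mval t a2.2)) := by
                          rw [← pow_add, ← pow_add, ← pow_add]; congr 1; ring
                        _ = e ^ ((l.1.map ξ).sum + (l.2.map ξ).sum) := by
                          rw [q3, ← pow_add, ← two_mul, hsq, mul_one]
    rw [hmain loops m h hlet', hsum _ hlet']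
    have hdvd : ∀ i ∈ Finset.range us.length, 2 ∣ cnt i (letters loops) * ξ i := by
      intro i hi
      exact Dvd.dvd.mul_right
        (Nat.dvd_of_mod_eq_zero (Nat.eq_of_beq_eq_true (heven i (List.mem_range.2 (Finset.mem_range.1 hi))))) _
    obtain ⟨q, hq⟩ := Finset.dvd_sum hdvd
    rw [hq, pow_mul, h2, one_pow]

end Sound

end CfsgLib.MathieuCover
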