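import Cfsg.Agent.MathieuTwo.Data11
import Cfsg.Agent.MathieuCover.Inst
set_option autoImplicit false
set_option maxRecDepth 20000
set_option Elab.async false

/-!
Certificate data excluding prime covers of M11 (found by a computer search, checked by the kernel).
-/

namespace CfsgLib.MathieuCover.C11

open CfsgLib.Golay CfsgLib.MathieuTwo CfsgLib.MathieuOut

/-- The fixed masks. -/
def fixd : List ℕ := [1, 340831]

/-- The presentation. -/
def pres : Pres where
  n := 4
  rows := [([], 1),
    ([2], 0),
    ([3], 4),
    ([3], 0),
    ([3], 8),
    ([3], 32),
    ([], 2),
    ([], 16),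
    ([], 64),
    ([], 128)]
  defs := [none, none, some (0, 1), some (0, 2)]
  tails := [(0, 0), (0, 3), (1, 1), (1, 2), (1, 3), (2, 2), (2, 3), (3, 3)]

/-- The equations. -/
def eqns : List Eqn := [.assoc [1] [0, 0] [],
  .assoc [1] [1, 0] [],
  .assoc [1] [1, 1] [],
  .assoc [2] [0, 0] [],
  .assoc [2] [1, 0] [],
  .assoc [2] [1, 1] [],
  .fus 0 [[3], [1, 2, 3], [2]] [[3], [2], [1, 3]] [([0], [1, 1]), ([2, 1], [0, 1, 2])],
  .fus 1 [[0, 2], [0, 2, 3]] [[3], [0]] [([], [0, 0])]]

/-- The certificate. -/
def split : Split where
  P := pres
  fuel := 37
  eqs := eqns
  combos := [[0, 2, 5, 7], [2, 4], [0, 1, 2, 4, 5, 6], [0, 1, 2, 3, 5], [2], [0, 2, 3, 4], [3, 4, 5], [2, 3, 4]]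

/-- The generators. -/
def cs : List ℕ := [486349973926430203268823274221996064, 815664988721524085384133160702420000, 470529933992166632105149051713982496, 319555039706231678938341312928260128]

/-- The fusing elements. -/
def gs : List ℕ := [221468986453060343554499803718133248, 850941327446933224773278897874880544]

/-- Words for the generators of the Sylow subgroup. -/
def Sw : List (List ℕ) := [[0, 1, 3], [0, 3]]

theorem split_ok : splitOk fixd split cs gs D11.gens Sw = true := by decide +kernel

/-- An element of order 5. -/
def x5 : ℕ := 430532770937979414890113431727652896

theorem x5_ok : primeOk fixd 5 x5 = true := by decide +kernel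

/-- An element of order 11. -/
def x11 : ℕ := 982261183818827002400291405684687232

theorem x11_ok : primeOk fixd 11 x11 = true := by decide +kernel

/-- A basis of the Sylow 3-subgroup. -/
def u : ℕ := 982952058575031108094510643075878016

/-- The second element. -/
def v : ℕ := 860199101799610836378501026830273024

/-- Its elements. -/
def tree3 : STree := (.node (.node (.node (.node .nil 716161049438888091885837952661718432 1 840768747762174544134908764209356896 4 .nil) 733725798126419034016120078716675648 1 858332967861927428139897730790339648 3 .nil) 735591422041888953339721735247008000 1 860199101799610836378501026830273024 2 (.node .nil 840768747762174544134908764209356896 1 965387327213236783394459070686642464 3 .nil)) 858332967861927428139897730790339648 1 982952058575031108094510643075878016 2 (.node (.node (.node .nil 860199101799610836378501026830273024 1 984818244535754528103549039458486304 1 .nil) 965387327213236783394459070686642464 0 982952058575031108094510643075878016 2 .nil) 982952058575031108094510643075878016 0 984818244535754528103549039458486304 1 (.node .nil 984818244535754528103549039458486304 0 0 0 .nil)))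

theorem tree3_ok : groupOk fixd [dec u, dec v] tree3 (3 ^ 2) = true := by decide +kernel

theorem uv_ok : elsOk fixd [u, v] = true := by decide +kernel

theorem act_ok : actOk fixd u v 965346966670364367458681901213092896 2 1 = true := by decide +kernel

end CfsgLib.MathieuCover.C11
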